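import Cfsg.Agent.CycG.Prin

set_option autoImplicit false
set_option linter.style.haveILetI false
set_option linter.unusedSectionVars false
set_option maxHeartbeats 400000

/-!
# The full value of a character at a section of its defect group
-/

namespace Cfsg.Agent.CycG

open scoped ComplexConjugate
open Cfsg Cfsg.Agent.CharBase Cfsg.Agent.Blk Cfsg.Agent.BlkInd Cfsg.Agent.BlkC

universe u

section
variable {G : Type u} [Group G] [Fintype G] {p : ℕ} [hp : Fact p.Prime] {M : Ideal AlgInt}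

theorem mult_cjI {C : Subgroup G} [Fintype C] {t : G} (htC : t ∈ Subgroup.normalizer (C : Set G))
    (ψ : IrrCharacter G) (χ : IrrCharacter C) : mult C ψ (cjI t χ) = mult C ψ χ := by
  have h1 : (mult C ψ (cjI t χ) : ℂ) = (mult C ψ χ : ℂ) := by
    rw [← mult_spec, ← mult_spec, classInner, classInner]
    congr 1
    symm
    refine Fintype.sum_equiv (normConj C htC).toEquiv _ _ fun h => ?_
    have e1 : (((normConj C htC).toEquiv h : C) : G) = t * h * t⁻¹ := normConj_coe C htC h
    rw [cjI_apply htC χ h _ e1, e1]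
    congr 1
    exact (irr_isClassFunction ψ (h : G) t).symm
  exact_mod_cast h1

/-- **blocks of `C_G(D)` inducing `B` are conjugate** -/
theorem conj_of_induced (hM : IsPModular p M) [M.IsPrime] {D C : Subgroup G}
    (hC : C = Subgroup.centralizer (D : Set G)) {B : Set (IrrCharacter G)}
    (hBD : IsDefectGroup p M B D) {b b' : Set (IrrCharacter C)}
    (hind : IsInducedBlock M C b B) (hind' : IsInducedBlock M C b' B) :
    ∃ u ∈ Subgroup.normalizer (D : Set G), Blk.cj u (EB M C b) = EB M C b' := by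
  haveI := charP_kM hM
  subst hC
  have hD : IsDef p ⊤ (Blk.eB M B) D := (Blk.isDefectGroup_iff hM hind.2.1 D).1 hBD
  have hDp := hD.isPGroup
  exact exists_conj_of_mpairOf hD
    ⟨⟨hDp, isBlk_EB hind.1⟩, isBlk_eB hind.2.1, pair_of_induced hM hDp rfl hind⟩
    ⟨⟨hDp, isBlk_EB hind'.1⟩, isBlk_eB hind.2.1, pair_of_induced hM hDp rfl hind'⟩

theorem EB_image [M.IsPrime] {K : Subgroup G} {x : G}
    (hx : x ∈ Subgroup.normalizer (K : Set G)) (e : Set (IrrCharacter K)) :
    EB M K (irrMap (normConj K hx) '' e) = Blk.cj x (EB M K e) := by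
  apply Blk.ga_ext; intro g
  rw [cj_coeff, EB_coeff, EB_coeff, subgroupBlockCoeff_image]

theorem image_eq_of_induced (hM : IsPModular p M) [M.IsPrime] {D C : Subgroup G}
    (hC : C = Subgroup.centralizer (D : Set G)) {B : Set (IrrCharacter G)}
    (hBD : IsDefectGroup p M B D) {b b' : Set (IrrCharacter C)}
    (hind : IsInducedBlock M C b B) (hind' : IsInducedBlock M C b' B) :
    ∃ u ∈ Subgroup.normalizer (D : Set G), u ∈ Subgroup.normalizer (C : Set G) ∧
      ∀ ξ ∈ b', cjI u ξ ∈ b := by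
  obtain ⟨u, hu, h⟩ := conj_of_induced hM hC hBD hind' hind
  have huC : u ∈ Subgroup.normalizer (C : Set G) := by
    rw [hC]; exact normalizer_le_normalizer_centralizer D hu
  refine ⟨u, hu, huC, ?_⟩
  rw [← EB_image huC] at h
  have h2 := EB_injective (isPBlock_image _ hind'.1) hind.1 h
  intro ξ hξ
  rw [← h2, cjI, dif_pos huC]
  exact ⟨ξ, hξ, rfl⟩

/-- membership of conjugates in a block only depends on the block -/
theorem cjI_mem_of_mem [M.IsPrime] {C : Subgroup G} {u : G}
    (hu : u ∈ Subgroup.normalizer (C : Set G)) {b b' : Set (IrrCharacter C)}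
    (hb : IsPBlock M b) (hb' : IsPBlock M b') {ξ ξ' : IrrCharacter C} (hξ : ξ ∈ b')
    (hξ' : ξ' ∈ b') (h : cjI u ξ ∈ b) : cjI u ξ' ∈ b := by
  have h1 : irrMap (normConj C hu) '' b' = b := by
    apply isPBlock_eq_of_mem (isPBlock_image _ hb') hb (χ := cjI u ξ) ?_ h
    rw [cjI, dif_pos hu]
    exact ⟨ξ, hξ, rfl⟩
  rw [← h1, cjI, dif_pos hu]
  exact ⟨ξ', hξ', rfl⟩

open Classical in
/-- **The full value.**  `|T| ψ(h) = ∑_{u ∈ N} (b-part of ψ)(u h u⁻¹)`. -/
theorem card_mul_value (hM : IsPModular p M) {D C T : Subgroup G} [Fintype C]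
    (hDp : IsPGroup p D) (hDC : D ≤ C)
    (hC : C = Subgroup.centralizer (D : Set G)) {B : Set (IrrCharacter G)}
    (hBD : IsDefectGroup p M B D) {b : Set (IrrCharacter C)}
    (hind : IsInducedBlock M C b B)
    (hT : ∀ g, g ∈ T ↔ g ∈ Subgroup.normalizer (D : Set G) ∧ StabilizesBlock C b g)
    {ψ : IrrCharacter G} (hψ : ψ ∈ B) (h : C) (hs : Sup p D (h : G)) :
    (Nat.card T : ℂ) * (ψ : G → ℂ) h =
      ∑ u : G, if hu : u ∈ Subgroup.normalizer (C : Set G) then
        (if u ∈ Subgroup.normalizer (D : Set G) then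
          blockPart b (fun c : C => (ψ : G → ℂ) c) (normConj C hu h) else 0) else 0 := by
  haveI := hM.2.1.isPrime
  haveI : Fintype (IrrCharacter C) := Fintype.ofFinite _
  have hNC : Subgroup.normalizer (D : Set G) ≤ Subgroup.normalizer (C : Set G) := by
    rw [hC]; exact normalizer_le_normalizer_centralizer D
  have hcf : IsClassFunction C (fun c : C => (ψ : G → ℂ) c) :=
    fun g h => irr_isClassFunction ψ (g : G) (h : G)
  set F : IrrCharacter C → ℂ := fun ξ => (mult C ψ ξ : ℂ) * (ξ : C → ℂ) h with hF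
  set A : IrrCharacter C → Prop := fun ξ => ∃ u ∈ Subgroup.normalizer (D : Set G), cjI u ξ ∈ b
    with hA
  -- the full value
  have h1 : (ψ : G → ℂ) h = ∑ ξ : IrrCharacter C, F ξ := by
    have h2 := classFun_apply_eq_sum hcf h
    refine h2.trans (Finset.sum_congr rfl fun ξ _ => ?_)
    rw [hF]; simp only [mult_spec]
  -- the part outside the orbit vanishes
  have h2 : ∑ ξ : IrrCharacter C, (if A ξ then 0 else F ξ) = 0 := by
    rw [H4.sum_eq_sum_block (M := M) (b₀ := b) hind.1 (fun ξ => if A ξ then 0 else F ξ)]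
    · apply Finset.sum_eq_zero
      intro ξ _
      by_cases hξ : ξ ∈ b
      · rw [if_pos hξ, if_pos]
        exact ⟨1, Subgroup.one_mem _, by rw [cjI_one]; exact hξ⟩
      · rw [if_neg hξ]
    · intro b' hb' hne
      by_cases hex : ∃ ξ ∈ b', A ξ
      · obtain ⟨ξ, hξ, u, hu, huξ⟩ := hex
        apply Finset.sum_eq_zero
        intro ξ' _
        by_cases hξ' : ξ' ∈ b'
        · rw [if_pos hξ', if_pos]
          exact ⟨u, hu, cjI_mem_of_mem (hNC hu) hind.1 hb' hξ hξ' huξ⟩
        · rw [if_neg hξ']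
      · push Not at hex
        obtain ⟨B', hB'⟩ := induced_defined hM hDp hDC hC hb'
        have hψ' : ψ ∉ B' := by
          intro h3
          have h4 : B' = B := isPBlock_eq_of_mem hB'.2.1 hind.2.1 h3 hψ
          rw [h4] at hB'
          obtain ⟨u, hu, -, hmem⟩ := image_eq_of_induced hM hC hBD hind hB'
          obtain ⟨ξ, hξ⟩ := block_nonempty hb'
          exact hex ξ hξ ⟨u, hu, hmem ξ hξ⟩
        have h5 := blockPart_eq_zero hM hC hB' hψ' hs
        rw [H4.blockPart_eq_sum_ite] at h5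
        refine Eq.trans (Finset.sum_congr rfl fun ξ _ => ?_) h5
        by_cases hξ : ξ ∈ b'
        · rw [if_pos hξ, if_pos hξ, if_neg (hex ξ hξ), hF]
          simp only [mult_spec]
        · rw [if_neg hξ, if_neg hξ]
  have h3 : (ψ : G → ℂ) h = ∑ ξ : IrrCharacter C, (if A ξ then F ξ else 0) := by
    have e0 : ∑ ξ : IrrCharacter C, F ξ = (∑ ξ : IrrCharacter C, (if A ξ then F ξ else 0)) +
        ∑ ξ : IrrCharacter C, (if A ξ then 0 else F ξ) := by
      rw [← Finset.sum_add_distrib]
      refine Finset.sum_congr rfl fun ξ _ => ?_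
      by_cases hξ : A ξ
      · rw [if_pos hξ, if_pos hξ, add_zero]
      · rw [if_neg hξ, if_neg hξ, zero_add]
    rw [h1, e0, h2, add_zero]
  -- the number of conjugating elements
  have h4 : ∀ ξ : IrrCharacter C, A ξ →
      (Finset.univ.filter (fun u : G => u ∈ Subgroup.normalizer (D : Set G) ∧
        cjI u ξ ∈ b)).card = Nat.card T := by
    rintro ξ ⟨u0, hu0, hξ⟩
    have hTN : ∀ t ∈ T, t ∈ Subgroup.normalizer (D : Set G) := fun t ht => ((hT t).1 ht).1
    have e1 : Finset.univ.filter (fun u : G => u ∈ Subgroup.normalizer (D : Set G) ∧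
        cjI u ξ ∈ b) = (Finset.univ.filter (fun t : G => t ∈ T)).image (fun t => t * u0) := by
      ext u
      simp only [Finset.mem_filter, Finset.mem_univ, true_and, Finset.mem_image]
      constructor
      · rintro ⟨hu, huξ⟩
        refine ⟨u * u0⁻¹, ?_, by group⟩
        have hv : u * u0⁻¹ ∈ Subgroup.normalizer (D : Set G) :=
          Subgroup.mul_mem _ hu (Subgroup.inv_mem _ hu0)
        rw [hT]
        refine ⟨hv, hNC hv, ?_⟩
        intro χ hχ
        refine ⟨cjI (u * u0⁻¹) χ, ?_, (isConjCharOf_cjI (hNC hv) _ _).2 rfl⟩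
        apply cjI_mem_of_mem (hNC hv) hind.1 hind.1 hξ hχ
        rw [← cjI_mul (hNC hv) (hNC hu0)]
        simpa using huξ
      · rintro ⟨t, ht, rfl⟩
        refine ⟨Subgroup.mul_mem _ (hTN t ht) hu0, ?_⟩
        rw [cjI_mul (hNC (hTN t ht)) (hNC hu0)]
        obtain ⟨-, hst⟩ := ((hT t).1 ht).2
        obtain ⟨χ', hχ', h5⟩ := hst _ hξ
        rw [isConjCharOf_cjI (hNC (hTN t ht))] at h5
        rw [← h5]; exact hχ'
    rw [e1, Finset.card_image_of_injective _ (mul_left_injective u0), CycDat.card_filter_mem]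
  -- the sum over `u`
  have h5 : ∀ (u : G) (hu : u ∈ Subgroup.normalizer (C : Set G)),
      u ∈ Subgroup.normalizer (D : Set G) →
      blockPart b (fun c : C => (ψ : G → ℂ) c) (normConj C hu h) =
        ∑ ξ : IrrCharacter C, if cjI u ξ ∈ b then F ξ else 0 := by
    intro u hu hu'
    rw [H4.blockPart_eq_sum_ite]
    symm
    refine Fintype.sum_equiv (irrMap (normConj C hu)) _ _ fun ξ => ?_
    have e1 : irrMap (normConj C hu) ξ = cjI u ξ := by rw [cjI, dif_pos hu]
    rw [e1]
    by_cases hξ : cjI u ξ ∈ b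
    · rw [if_pos hξ, if_pos hξ, hF]
      simp only [mult_spec]
      rw [mult_cjI hu]
      rw [cjI_apply hu ξ h _ (normConj_coe C hu h)]
    · rw [if_neg hξ, if_neg hξ]
  have h6 : (∑ u : G, if hu : u ∈ Subgroup.normalizer (C : Set G) then
        (if u ∈ Subgroup.normalizer (D : Set G) then
          blockPart b (fun c : C => (ψ : G → ℂ) c) (normConj C hu h) else 0) else 0) =
      ∑ u : G, ∑ ξ : IrrCharacter C,
        if u ∈ Subgroup.normalizer (D : Set G) ∧ cjI u ξ ∈ b then F ξ else 0 := by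
    refine Finset.sum_congr rfl fun u _ => ?_
    by_cases hu : u ∈ Subgroup.normalizer (D : Set G)
    · rw [dif_pos (hNC hu), if_pos hu, h5 u (hNC hu) hu]
      refine Finset.sum_congr rfl fun ξ _ => ?_
      by_cases hξ : cjI u ξ ∈ b
      · rw [if_pos hξ, if_pos ⟨hu, hξ⟩]
      · rw [if_neg hξ, if_neg (fun h => hξ h.2)]
    · have e1 : (∑ ξ : IrrCharacter C,
        if u ∈ Subgroup.normalizer (D : Set G) ∧ cjI u ξ ∈ b then F ξ else 0) = 0 :=
        Finset.sum_eq_zero fun ξ _ => if_neg (fun h => hu h.1)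
      rw [e1]
      split_ifs <;> rfl
  rw [h6, Finset.sum_comm, h3, Finset.mul_sum]
  refine Finset.sum_congr rfl fun ξ _ => ?_
  rw [← Finset.sum_filter, Finset.sum_const, nsmul_eq_mul]
  by_cases hξ : A ξ
  · rw [if_pos hξ, h4 ξ hξ]
  · rw [if_neg hξ, mul_zero]
    have : (Finset.univ.filter (fun u : G => u ∈ Subgroup.normalizer (D : Set G) ∧
        cjI u ξ ∈ b)) = ∅ := by
      rw [Finset.filter_eq_empty_iff]
      rintro u - ⟨hu, huξ⟩
      exact hξ ⟨u, hu, huξ⟩
    rw [this]; simp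

end

end Cfsg.Agent.CycG
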